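import Cfsg.Agent.Lib.H34.TCS6A.Chk
set_option autoImplicit false
set_option maxRecDepth 100000
set_option linter.all false
namespace H34.TCS6A
open H35.TC
section
variable {G : Type} [Group G] {g : Lt → G} {H : Subgroup G}
/-- the points of the nodes -/
noncomputable def cP (g : Lt → G) (H : Subgroup G) : ℕ → G ⧸ H := cc (fa g) lt P ((1 : G) : G ⧸ H)
theorem dp_t0_0_s (hinv : ∀ x, g (inv x) = (g x)⁻¹) (hr : ∀ r ∈ rels, (r.map g).prod = 1) (hH : ∀ r ∈ subs, (r.map g).prod ∈ H)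
    (j u : ℕ) (hu : u < M) (h : dp_t0_0 j u = true) : Good (fa g) T MG M (cP g H) Lt.t0 u := by
  unfold dp_t0_0 at h
  rcases brec_true h with h | h
  · exact lF_good (T := T) (x := Lt.t0) (by decide) [Lt.w, Lt.t4, Lt.t0, Lt.t4] (hole_rel hinv hr (by decide +kernel)) h
  · exact lF_good (T := T) (x := Lt.t0) (by decide) [Lt.w, Lt.t6, Lt.t0, Lt.t6] (hole_rel hinv hr (by decide +kernel)) h
theorem dp_t0_1_s (hinv : ∀ x, g (inv x) = (g x)⁻¹) (hr : ∀ r ∈ rels, (r.map g).prod = 1) (hH : ∀ r ∈ subs, (r.map g).prod ∈ H)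
    (j u : ℕ) (hu : u < M) (h : dp_t0_1 j u = true) : Good (fa g) T MG M (cP g H) Lt.t0 u := by
  unfold dp_t0_1 at h
  rcases brec_true h with h | h
  · exact lF_good (T := T) (x := Lt.t0) (by decide) [Lt.t6, Lt.t0, Lt.w, Lt.t6] (hole_rel hinv hr (by decide +kernel)) h
  · exact lF_good (T := T) (x := Lt.t0) (by decide) [Lt.t4, Lt.t0, Lt.w, Lt.t4] (hole_rel hinv hr (by decide +kernel)) h
theorem dp_t0_2_s (hinv : ∀ x, g (inv x) = (g x)⁻¹) (hr : ∀ r ∈ rels, (r.map g).prod = 1) (hH : ∀ r ∈ subs, (r.map g).prod ∈ H)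
    (j u : ℕ) (hu : u < M) (h : dp_t0_2 j u = true) : Good (fa g) T MG M (cP g H) Lt.t0 u := by
  unfold dp_t0_2 at h
  rcases brec_true h with h | h
  · exact lDef_good (T := T) (x := Lt.t0) (by decide) rfl h
  · exact lPar_good (T := T) (x := Lt.t0) (x' := Lt.t0) (by decide) rfl (inv_rel hinv _ _ rfl) h
theorem dp_t0_3_s (hinv : ∀ x, g (inv x) = (g x)⁻¹) (hr : ∀ r ∈ rels, (r.map g).prod = 1) (hH : ∀ r ∈ subs, (r.map g).prod ∈ H)
    (j u : ℕ) (hu : u < M) (h : dp_t0_3 j u = true) : Good (fa g) T MG M (cP g H) Lt.t0 u := by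
  unfold dp_t0_3 at h
  rcases brec_true h with h | h
  · exact lF_good (T := T) (x := Lt.t0) (by decide) [Lt.t2, Lt.w, Lt.t0, Lt.t2] (hole_rel hinv hr (by decide +kernel)) h
  · exact lF_good (T := T) (x := Lt.t0) (by decide) [Lt.t3, Lt.w, Lt.t0, Lt.t3] (hole_rel hinv hr (by decide +kernel)) h
theorem dp_t0_4_s (hinv : ∀ x, g (inv x) = (g x)⁻¹) (hr : ∀ r ∈ rels, (r.map g).prod = 1) (hH : ∀ r ∈ subs, (r.map g).prod ∈ H)
    (j u : ℕ) (hu : u < M) (h : dp_t0_4 j u = true) : Good (fa g) T MG M (cP g H) Lt.t0 u := by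
  unfold dp_t0_4 at h
  rcases brec_true h with h | h
  · exact lF_good (T := T) (x := Lt.t0) (by decide) [Lt.t5, Lt.t0, Lt.w, Lt.t5] (hole_rel hinv hr (by decide +kernel)) h
  · exact lF_good (T := T) (x := Lt.t0) (by decide) [Lt.t1, Lt.t0, Lt.t1, Lt.t0, Lt.t1] (hole_rel hinv hr (by decide +kernel)) h
theorem dp_t0_5_s (hinv : ∀ x, g (inv x) = (g x)⁻¹) (hr : ∀ r ∈ rels, (r.map g).prod = 1) (hH : ∀ r ∈ subs, (r.map g).prod ∈ H)
    (j u : ℕ) (hu : u < M) (h : dp_t0_5 j u = true) : Good (fa g) T MG M (cP g H) Lt.t0 u := by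
  unfold dp_t0_5 at h
  rcases brec_true h with h | h
  · exact lH_good (T := T) (x := Lt.t0) (by decide) [] [] (by rw [show cP g H 0 = _ from cc_zero]; exact sub_rel hinv (hH _ (by decide))) h
  · exact dp_t0_4_s hinv hr hH j u hu h
theorem dp_t0_6_s (hinv : ∀ x, g (inv x) = (g x)⁻¹) (hr : ∀ r ∈ rels, (r.map g).prod = 1) (hH : ∀ r ∈ subs, (r.map g).prod ∈ H)
    (j u : ℕ) (hu : u < M) (h : dp_t0_6 j u = true) : Good (fa g) T MG M (cP g H) Lt.t0 u := by
  unfold dp_t0_6 at h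
  rcases brec_true h with h | h
  · exact dp_t0_3_s hinv hr hH j u hu h
  · exact dp_t0_5_s hinv hr hH j u hu h
theorem dp_t0_7_s (hinv : ∀ x, g (inv x) = (g x)⁻¹) (hr : ∀ r ∈ rels, (r.map g).prod = 1) (hH : ∀ r ∈ subs, (r.map g).prod ∈ H)
    (j u : ℕ) (hu : u < M) (h : dp_t0_7 j u = true) : Good (fa g) T MG M (cP g H) Lt.t0 u := by
  unfold dp_t0_7 at h
  rcases brec_true h with h | h
  · rcases brec_true h with h | h
    · exact dp_t0_1_s hinv hr hH j u hu h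
    · exact dp_t0_2_s hinv hr hH j u hu h
  · exact dp_t0_6_s hinv hr hH j u hu h
theorem dp_t0_8_s (hinv : ∀ x, g (inv x) = (g x)⁻¹) (hr : ∀ r ∈ rels, (r.map g).prod = 1) (hH : ∀ r ∈ subs, (r.map g).prod ∈ H)
    (j u : ℕ) (hu : u < M) (h : dp_t0_8 j u = true) : Good (fa g) T MG M (cP g H) Lt.t0 u := by
  unfold dp_t0_8 at h
  rcases brec_true h with h | h
  · rcases brec_true h with h | h
    · rcases brec_true h with h | h
      · exact lF3_good (T := T) (x := Lt.t0) (by decide) .v .t0 .vi (hole_rel hinv hr (by decide +kernel)) h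
      · exact lF_good (T := T) (x := Lt.t0) (by decide) [Lt.w, Lt.t5, Lt.t0, Lt.t5] (hole_rel hinv hr (by decide +kernel)) h
    · exact dp_t0_0_s hinv hr hH j u hu h
  · exact dp_t0_7_s hinv hr hH j u hu h
theorem snd_t0 (hinv : ∀ x, g (inv x) = (g x)⁻¹) (hr : ∀ r ∈ rels, (r.map g).prod = 1) (hH : ∀ r ∈ subs, (r.map g).prod ∈ H)
    (j u : ℕ) (hu : u < M) (h : disp_t0 j u = true) : Good (fa g) T MG M (cP g H) Lt.t0 u := by
  unfold disp_t0 at h
  rcases brec_true h with h | h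
  · rcases brec_true h with h | h
    · exact lF3_good (T := T) (x := Lt.t0) (by decide) .vi .t0 .v (hole_rel hinv hr (by decide +kernel)) h
    · exact lF1_good (T := T) (x := Lt.t0) (by decide) .t0 (hole_rel hinv hr (by decide +kernel)) h
  · exact dp_t0_8_s hinv hr hH j u hu h
theorem snc_t0 (hinv : ∀ x, g (inv x) = (g x)⁻¹) (hr : ∀ r ∈ rels, (r.map g).prod = 1) (hH : ∀ r ∈ subs, (r.map g).prod ∈ H)
    (j u : ℕ) (hu : u < M) (h : chk_t0 j u = true) : (T Lt.t0 u < A ∧ Good (fa g) T MG M (cP g H) Lt.t0 u) ∨ (A ≤ T Lt.t0 u ∧ MG u < A) := by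
  unfold chk_t0 at h
  cases hb : Nat.ble A (T_t0 u) with
  | true => rw [hb] at h; exact Or.inr ⟨le_of_ble hb, le_of_ble h⟩
  | false => rw [hb] at h; exact Or.inl ⟨lt_of_ble_false hb, snd_t0 hinv hr hH j u hu h⟩
theorem dp_t1_0_s (hinv : ∀ x, g (inv x) = (g x)⁻¹) (hr : ∀ r ∈ rels, (r.map g).prod = 1) (hH : ∀ r ∈ subs, (r.map g).prod ∈ H)
    (j u : ℕ) (hu : u < M) (h : dp_t1_0 j u = true) : Good (fa g) T MG M (cP g H) Lt.t1 u := by
  unfold dp_t1_0 at h
  rcases brec_true h with h | h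
  · exact lF_good (T := T) (x := Lt.t1) (by decide) [Lt.w, Lt.t6, Lt.t1, Lt.t6] (hole_rel hinv hr (by decide +kernel)) h
  · exact lDef_good (T := T) (x := Lt.t1) (by decide) rfl h
theorem dp_t1_1_s (hinv : ∀ x, g (inv x) = (g x)⁻¹) (hr : ∀ r ∈ rels, (r.map g).prod = 1) (hH : ∀ r ∈ subs, (r.map g).prod ∈ H)
    (j u : ℕ) (hu : u < M) (h : dp_t1_1 j u = true) : Good (fa g) T MG M (cP g H) Lt.t1 u := by
  unfold dp_t1_1 at h
  rcases brec_true h with h | h
  · exact lF_good (T := T) (x := Lt.t1) (by decide) [Lt.w, Lt.t5, Lt.t1, Lt.t5] (hole_rel hinv hr (by decide +kernel)) h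
  · exact lF_good (T := T) (x := Lt.t1) (by decide) [Lt.t0, Lt.t1, Lt.t0, Lt.t1, Lt.t0] (hole_rel hinv hr (by decide +kernel)) h
theorem dp_t1_2_s (hinv : ∀ x, g (inv x) = (g x)⁻¹) (hr : ∀ r ∈ rels, (r.map g).prod = 1) (hH : ∀ r ∈ subs, (r.map g).prod ∈ H)
    (j u : ℕ) (hu : u < M) (h : dp_t1_2 j u = true) : Good (fa g) T MG M (cP g H) Lt.t1 u := by
  unfold dp_t1_2 at h
  rcases brec_true h with h | h
  · exact lF_good (T := T) (x := Lt.t1) (by decide) [Lt.t2, Lt.t1, Lt.t2, Lt.t1, Lt.t2] (hole_rel hinv hr (by decide +kernel)) h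
  · exact lF_good (T := T) (x := Lt.t1) (by decide) [Lt.t4, Lt.t1, Lt.t4, Lt.t1, Lt.t4] (hole_rel hinv hr (by decide +kernel)) h
theorem dp_t1_3_s (hinv : ∀ x, g (inv x) = (g x)⁻¹) (hr : ∀ r ∈ rels, (r.map g).prod = 1) (hH : ∀ r ∈ subs, (r.map g).prod ∈ H)
    (j u : ℕ) (hu : u < M) (h : dp_t1_3 j u = true) : Good (fa g) T MG M (cP g H) Lt.t1 u := by
  unfold dp_t1_3 at h
  rcases brec_true h with h | h
  · exact lH_good (T := T) (x := Lt.t1) (by decide) [] [] (by rw [show cP g H 0 = _ from cc_zero]; exact sub_rel hinv (hH _ (by decide))) h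
  · exact lF_good (T := T) (x := Lt.t1) (by decide) [Lt.t5, Lt.t1, Lt.w, Lt.t5] (hole_rel hinv hr (by decide +kernel)) h
theorem dp_t1_4_s (hinv : ∀ x, g (inv x) = (g x)⁻¹) (hr : ∀ r ∈ rels, (r.map g).prod = 1) (hH : ∀ r ∈ subs, (r.map g).prod ∈ H)
    (j u : ℕ) (hu : u < M) (h : dp_t1_4 j u = true) : Good (fa g) T MG M (cP g H) Lt.t1 u := by
  unfold dp_t1_4 at h
  rcases brec_true h with h | h
  · exact lS_good (T := T) (x := Lt.t1) (by decide) hu [Lt.t1] (hole_rel hinv hr (by decide +kernel)) h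
  · exact lF_good (T := T) (x := Lt.t1) (by decide) [Lt.t2, Lt.t3, Lt.t4, Lt.t5, Lt.t6, Lt.t0, Lt.t1, Lt.t2, Lt.t3, Lt.t4, Lt.t5, Lt.t6, Lt.t0, Lt.t1, Lt.t2, Lt.t3, Lt.t4, Lt.t5, Lt.t6, Lt.t0, Lt.t1, Lt.t2, Lt.t3, Lt.t4, Lt.t5, Lt.t6, Lt.t0, Lt.t1, Lt.t2, Lt.t3, Lt.t4, Lt.t5, Lt.t6, Lt.t0, Lt.t1, Lt.t2, Lt.t3, Lt.t4, Lt.t5, Lt.t6, Lt.t0, Lt.t1, Lt.t2, Lt.t3, Lt.t4, Lt.t5, Lt.t6, Lt.t0, Lt.t1, Lt.t2, Lt.t3, Lt.t4, Lt.t5, Lt.t6, Lt.t0, Lt.t1, Lt.t2, Lt.t3, Lt.t4, Lt.t5, Lt.t6, Lt.vi, Lt.t0] (hole_rel hinv hr (by decide +kernel)) h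
theorem dp_t1_5_s (hinv : ∀ x, g (inv x) = (g x)⁻¹) (hr : ∀ r ∈ rels, (r.map g).prod = 1) (hH : ∀ r ∈ subs, (r.map g).prod ∈ H)
    (j u : ℕ) (hu : u < M) (h : dp_t1_5 j u = true) : Good (fa g) T MG M (cP g H) Lt.t1 u := by
  unfold dp_t1_5 at h
  rcases brec_true h with h | h
  · exact lF_good (T := T) (x := Lt.t1) (by decide) [Lt.t6, Lt.t1, Lt.w, Lt.t6] (hole_rel hinv hr (by decide +kernel)) h
  · exact dp_t1_4_s hinv hr hH j u hu h
theorem dp_t1_6_s (hinv : ∀ x, g (inv x) = (g x)⁻¹) (hr : ∀ r ∈ rels, (r.map g).prod = 1) (hH : ∀ r ∈ subs, (r.map g).prod ∈ H)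
    (j u : ℕ) (hu : u < M) (h : dp_t1_6 j u = true) : Good (fa g) T MG M (cP g H) Lt.t1 u := by
  unfold dp_t1_6 at h
  rcases brec_true h with h | h
  · exact dp_t1_3_s hinv hr hH j u hu h
  · exact dp_t1_5_s hinv hr hH j u hu h
theorem dp_t1_7_s (hinv : ∀ x, g (inv x) = (g x)⁻¹) (hr : ∀ r ∈ rels, (r.map g).prod = 1) (hH : ∀ r ∈ subs, (r.map g).prod ∈ H)
    (j u : ℕ) (hu : u < M) (h : dp_t1_7 j u = true) : Good (fa g) T MG M (cP g H) Lt.t1 u := by
  unfold dp_t1_7 at h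
  rcases brec_true h with h | h
  · rcases brec_true h with h | h
    · exact lPar_good (T := T) (x := Lt.t1) (x' := Lt.t1) (by decide) rfl (inv_rel hinv _ _ rfl) h
    · exact dp_t1_1_s hinv hr hH j u hu h
  · rcases brec_true h with h | h
    · exact dp_t1_2_s hinv hr hH j u hu h
    · exact dp_t1_6_s hinv hr hH j u hu h
theorem snd_t1 (hinv : ∀ x, g (inv x) = (g x)⁻¹) (hr : ∀ r ∈ rels, (r.map g).prod = 1) (hH : ∀ r ∈ subs, (r.map g).prod ∈ H)
    (j u : ℕ) (hu : u < M) (h : disp_t1 j u = true) : Good (fa g) T MG M (cP g H) Lt.t1 u := by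
  unfold disp_t1 at h
  rcases brec_true h with h | h
  · rcases brec_true h with h | h
    · exact lF3_good (T := T) (x := Lt.t1) (by decide) .vi .t1 .v (hole_rel hinv hr (by decide +kernel)) h
    · exact lF1_good (T := T) (x := Lt.t1) (by decide) .t1 (hole_rel hinv hr (by decide +kernel)) h
  · rcases brec_true h with h | h
    · rcases brec_true h with h | h
      · rcases brec_true h with h | h
        · exact lF_good (T := T) (x := Lt.t1) (by decide) [Lt.t3, Lt.w, Lt.t1, Lt.t3] (hole_rel hinv hr (by decide +kernel)) h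
        · exact lF3_good (T := T) (x := Lt.t1) (by decide) .v .t1 .vi (hole_rel hinv hr (by decide +kernel)) h
      · exact dp_t1_0_s hinv hr hH j u hu h
    · exact dp_t1_7_s hinv hr hH j u hu h
theorem snc_t1 (hinv : ∀ x, g (inv x) = (g x)⁻¹) (hr : ∀ r ∈ rels, (r.map g).prod = 1) (hH : ∀ r ∈ subs, (r.map g).prod ∈ H)
    (j u : ℕ) (hu : u < M) (h : chk_t1 j u = true) : (T Lt.t1 u < A ∧ Good (fa g) T MG M (cP g H) Lt.t1 u) ∨ (A ≤ T Lt.t1 u ∧ MG u < A) := by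
  unfold chk_t1 at h
  cases hb : Nat.ble A (T_t1 u) with
  | true => rw [hb] at h; exact Or.inr ⟨le_of_ble hb, le_of_ble h⟩
  | false => rw [hb] at h; exact Or.inl ⟨lt_of_ble_false hb, snd_t1 hinv hr hH j u hu h⟩
theorem dp_t2_0_s (hinv : ∀ x, g (inv x) = (g x)⁻¹) (hr : ∀ r ∈ rels, (r.map g).prod = 1) (hH : ∀ r ∈ subs, (r.map g).prod ∈ H)
    (j u : ℕ) (hu : u < M) (h : dp_t2_0 j u = true) : Good (fa g) T MG M (cP g H) Lt.t2 u := by
  unfold dp_t2_0 at h
  rcases brec_true h with h | h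
  · exact lDef_good (T := T) (x := Lt.t2) (by decide) rfl h
  · exact lPar_good (T := T) (x := Lt.t2) (x' := Lt.t2) (by decide) rfl (inv_rel hinv _ _ rfl) h
theorem dp_t2_1_s (hinv : ∀ x, g (inv x) = (g x)⁻¹) (hr : ∀ r ∈ rels, (r.map g).prod = 1) (hH : ∀ r ∈ subs, (r.map g).prod ∈ H)
    (j u : ℕ) (hu : u < M) (h : dp_t2_1 j u = true) : Good (fa g) T MG M (cP g H) Lt.t2 u := by
  unfold dp_t2_1 at h
  rcases brec_true h with h | h
  · exact lF_good (T := T) (x := Lt.t2) (by decide) [Lt.w, Lt.t5, Lt.t2, Lt.t5] (hole_rel hinv hr (by decide +kernel)) h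
  · exact lF_good (T := T) (x := Lt.t2) (by decide) [Lt.t5, Lt.t2, Lt.w, Lt.t5] (hole_rel hinv hr (by decide +kernel)) h
theorem dp_t2_2_s (hinv : ∀ x, g (inv x) = (g x)⁻¹) (hr : ∀ r ∈ rels, (r.map g).prod = 1) (hH : ∀ r ∈ subs, (r.map g).prod ∈ H)
    (j u : ℕ) (hu : u < M) (h : dp_t2_2 j u = true) : Good (fa g) T MG M (cP g H) Lt.t2 u := by
  unfold dp_t2_2 at h
  rcases brec_true h with h | h
  · exact lF_good (T := T) (x := Lt.t2) (by decide) [Lt.t1, Lt.t2, Lt.t1, Lt.t2, Lt.t1] (hole_rel hinv hr (by decide +kernel)) h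
  · exact lF_good (T := T) (x := Lt.t2) (by decide) [Lt.w, Lt.t0, Lt.t2, Lt.t0] (hole_rel hinv hr (by decide +kernel)) h
theorem dp_t2_3_s (hinv : ∀ x, g (inv x) = (g x)⁻¹) (hr : ∀ r ∈ rels, (r.map g).prod = 1) (hH : ∀ r ∈ subs, (r.map g).prod ∈ H)
    (j u : ℕ) (hu : u < M) (h : dp_t2_3 j u = true) : Good (fa g) T MG M (cP g H) Lt.t2 u := by
  unfold dp_t2_3 at h
  rcases brec_true h with h | h
  · exact lH_good (T := T) (x := Lt.t2) (by decide) [] [] (by rw [show cP g H 0 = _ from cc_zero]; exact sub_rel hinv (hH _ (by decide))) h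
  · exact lF_good (T := T) (x := Lt.t2) (by decide) [Lt.t4, Lt.t2, Lt.w, Lt.t4] (hole_rel hinv hr (by decide +kernel)) h
theorem dp_t2_4_s (hinv : ∀ x, g (inv x) = (g x)⁻¹) (hr : ∀ r ∈ rels, (r.map g).prod = 1) (hH : ∀ r ∈ subs, (r.map g).prod ∈ H)
    (j u : ℕ) (hu : u < M) (h : dp_t2_4 j u = true) : Good (fa g) T MG M (cP g H) Lt.t2 u := by
  unfold dp_t2_4 at h
  rcases brec_true h with h | h
  · exact lF_good (T := T) (x := Lt.t2) (by decide) [Lt.t3, Lt.t2, Lt.t3, Lt.t2, Lt.t3] (hole_rel hinv hr (by decide +kernel)) h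
  · exact lF_good (T := T) (x := Lt.t2) (by decide) [Lt.t6, Lt.t2, Lt.w, Lt.t6] (hole_rel hinv hr (by decide +kernel)) h
theorem dp_t2_5_s (hinv : ∀ x, g (inv x) = (g x)⁻¹) (hr : ∀ r ∈ rels, (r.map g).prod = 1) (hH : ∀ r ∈ subs, (r.map g).prod ∈ H)
    (j u : ℕ) (hu : u < M) (h : dp_t2_5 j u = true) : Good (fa g) T MG M (cP g H) Lt.t2 u := by
  unfold dp_t2_5 at h
  rcases brec_true h with h | h
  · exact dp_t2_3_s hinv hr hH j u hu h
  · exact dp_t2_4_s hinv hr hH j u hu h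
theorem dp_t2_6_s (hinv : ∀ x, g (inv x) = (g x)⁻¹) (hr : ∀ r ∈ rels, (r.map g).prod = 1) (hH : ∀ r ∈ subs, (r.map g).prod ∈ H)
    (j u : ℕ) (hu : u < M) (h : dp_t2_6 j u = true) : Good (fa g) T MG M (cP g H) Lt.t2 u := by
  unfold dp_t2_6 at h
  rcases brec_true h with h | h
  · rcases brec_true h with h | h
    · exact lF3_good (T := T) (x := Lt.t2) (by decide) .v .t2 .vi (hole_rel hinv hr (by decide +kernel)) h
    · exact dp_t2_1_s hinv hr hH j u hu h
  · rcases brec_true h with h | h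
    · exact dp_t2_2_s hinv hr hH j u hu h
    · exact dp_t2_5_s hinv hr hH j u hu h
theorem snd_t2 (hinv : ∀ x, g (inv x) = (g x)⁻¹) (hr : ∀ r ∈ rels, (r.map g).prod = 1) (hH : ∀ r ∈ subs, (r.map g).prod ∈ H)
    (j u : ℕ) (hu : u < M) (h : disp_t2 j u = true) : Good (fa g) T MG M (cP g H) Lt.t2 u := by
  unfold disp_t2 at h
  rcases brec_true h with h | h
  · rcases brec_true h with h | h
    · exact lF3_good (T := T) (x := Lt.t2) (by decide) .vi .t2 .v (hole_rel hinv hr (by decide +kernel)) h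
    · exact lF1_good (T := T) (x := Lt.t2) (by decide) .t2 (hole_rel hinv hr (by decide +kernel)) h
  · rcases brec_true h with h | h
    · rcases brec_true h with h | h
      · rcases brec_true h with h | h
        · exact lF_good (T := T) (x := Lt.t2) (by decide) [Lt.w, Lt.t6, Lt.t2, Lt.t6] (hole_rel hinv hr (by decide +kernel)) h
        · exact lF_good (T := T) (x := Lt.t2) (by decide) [Lt.w, Lt.t4, Lt.t2, Lt.t4] (hole_rel hinv hr (by decide +kernel)) h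
      · exact dp_t2_0_s hinv hr hH j u hu h
    · exact dp_t2_6_s hinv hr hH j u hu h
theorem snc_t2 (hinv : ∀ x, g (inv x) = (g x)⁻¹) (hr : ∀ r ∈ rels, (r.map g).prod = 1) (hH : ∀ r ∈ subs, (r.map g).prod ∈ H)
    (j u : ℕ) (hu : u < M) (h : chk_t2 j u = true) : (T Lt.t2 u < A ∧ Good (fa g) T MG M (cP g H) Lt.t2 u) ∨ (A ≤ T Lt.t2 u ∧ MG u < A) := by
  unfold chk_t2 at h
  cases hb : Nat.ble A (T_t2 u) with
  | true => rw [hb] at h; exact Or.inr ⟨le_of_ble hb, le_of_ble h⟩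
  | false => rw [hb] at h; exact Or.inl ⟨lt_of_ble_false hb, snd_t2 hinv hr hH j u hu h⟩
theorem dp_t3_0_s (hinv : ∀ x, g (inv x) = (g x)⁻¹) (hr : ∀ r ∈ rels, (r.map g).prod = 1) (hH : ∀ r ∈ subs, (r.map g).prod ∈ H)
    (j u : ℕ) (hu : u < M) (h : dp_t3_0 j u = true) : Good (fa g) T MG M (cP g H) Lt.t3 u := by
  unfold dp_t3_0 at h
  rcases brec_true h with h | h
  · exact lPar_good (T := T) (x := Lt.t3) (x' := Lt.t3) (by decide) rfl (inv_rel hinv _ _ rfl) h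
  · exact lF_good (T := T) (x := Lt.t3) (by decide) [Lt.w, Lt.t1, Lt.t3, Lt.t1] (hole_rel hinv hr (by decide +kernel)) h
theorem dp_t3_1_s (hinv : ∀ x, g (inv x) = (g x)⁻¹) (hr : ∀ r ∈ rels, (r.map g).prod = 1) (hH : ∀ r ∈ subs, (r.map g).prod ∈ H)
    (j u : ℕ) (hu : u < M) (h : dp_t3_1 j u = true) : Good (fa g) T MG M (cP g H) Lt.t3 u := by
  unfold dp_t3_1 at h
  rcases brec_true h with h | h
  · exact lF_good (T := T) (x := Lt.t3) (by decide) [Lt.w, Lt.t6, Lt.t3, Lt.t6] (hole_rel hinv hr (by decide +kernel)) h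
  · exact lF_good (T := T) (x := Lt.t3) (by decide) [Lt.t5, Lt.t3, Lt.w, Lt.t5] (hole_rel hinv hr (by decide +kernel)) h
theorem dp_t3_2_s (hinv : ∀ x, g (inv x) = (g x)⁻¹) (hr : ∀ r ∈ rels, (r.map g).prod = 1) (hH : ∀ r ∈ subs, (r.map g).prod ∈ H)
    (j u : ℕ) (hu : u < M) (h : dp_t3_2 j u = true) : Good (fa g) T MG M (cP g H) Lt.t3 u := by
  unfold dp_t3_2 at h
  rcases brec_true h with h | h
  · exact lH_good (T := T) (x := Lt.t3) (by decide) [] [] (by rw [show cP g H 0 = _ from cc_zero]; exact sub_rel hinv (hH _ (by decide))) h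
  · exact lF_good (T := T) (x := Lt.t3) (by decide) [Lt.t4, Lt.t3, Lt.w, Lt.t4] (hole_rel hinv hr (by decide +kernel)) h
theorem dp_t3_3_s (hinv : ∀ x, g (inv x) = (g x)⁻¹) (hr : ∀ r ∈ rels, (r.map g).prod = 1) (hH : ∀ r ∈ subs, (r.map g).prod ∈ H)
    (j u : ℕ) (hu : u < M) (h : dp_t3_3 j u = true) : Good (fa g) T MG M (cP g H) Lt.t3 u := by
  unfold dp_t3_3 at h
  rcases brec_true h with h | h
  · exact lF_good (T := T) (x := Lt.t3) (by decide) [Lt.t1, Lt.t3, Lt.w, Lt.t1] (hole_rel hinv hr (by decide +kernel)) h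
  · exact lF_good (T := T) (x := Lt.t3) (by decide) [Lt.t0, Lt.t3, Lt.w, Lt.t0] (hole_rel hinv hr (by decide +kernel)) h
theorem dp_t3_4_s (hinv : ∀ x, g (inv x) = (g x)⁻¹) (hr : ∀ r ∈ rels, (r.map g).prod = 1) (hH : ∀ r ∈ subs, (r.map g).prod ∈ H)
    (j u : ℕ) (hu : u < M) (h : dp_t3_4 j u = true) : Good (fa g) T MG M (cP g H) Lt.t3 u := by
  unfold dp_t3_4 at h
  rcases brec_true h with h | h
  · exact dp_t3_2_s hinv hr hH j u hu h
  · exact dp_t3_3_s hinv hr hH j u hu h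
theorem dp_t3_5_s (hinv : ∀ x, g (inv x) = (g x)⁻¹) (hr : ∀ r ∈ rels, (r.map g).prod = 1) (hH : ∀ r ∈ subs, (r.map g).prod ∈ H)
    (j u : ℕ) (hu : u < M) (h : dp_t3_5 j u = true) : Good (fa g) T MG M (cP g H) Lt.t3 u := by
  unfold dp_t3_5 at h
  rcases brec_true h with h | h
  · exact lF_good (T := T) (x := Lt.t3) (by decide) [Lt.t2, Lt.t3, Lt.t2, Lt.t3, Lt.t2] (hole_rel hinv hr (by decide +kernel)) h
  · exact lF_good (T := T) (x := Lt.t3) (by decide) [Lt.t6, Lt.t3, Lt.w, Lt.t6] (hole_rel hinv hr (by decide +kernel)) h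
theorem dp_t3_6_s (hinv : ∀ x, g (inv x) = (g x)⁻¹) (hr : ∀ r ∈ rels, (r.map g).prod = 1) (hH : ∀ r ∈ subs, (r.map g).prod ∈ H)
    (j u : ℕ) (hu : u < M) (h : dp_t3_6 j u = true) : Good (fa g) T MG M (cP g H) Lt.t3 u := by
  unfold dp_t3_6 at h
  rcases brec_true h with h | h
  · exact lF_good (T := T) (x := Lt.t3) (by decide) [Lt.w, Lt.t5, Lt.t3, Lt.t5] (hole_rel hinv hr (by decide +kernel)) h
  · exact lF3_good (T := T) (x := Lt.t3) (by decide) .v .t3 .vi (hole_rel hinv hr (by decide +kernel)) h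
theorem dp_t3_7_s (hinv : ∀ x, g (inv x) = (g x)⁻¹) (hr : ∀ r ∈ rels, (r.map g).prod = 1) (hH : ∀ r ∈ subs, (r.map g).prod ∈ H)
    (j u : ℕ) (hu : u < M) (h : dp_t3_7 j u = true) : Good (fa g) T MG M (cP g H) Lt.t3 u := by
  unfold dp_t3_7 at h
  rcases brec_true h with h | h
  · exact dp_t3_5_s hinv hr hH j u hu h
  · exact dp_t3_6_s hinv hr hH j u hu h
theorem dp_t3_8_s (hinv : ∀ x, g (inv x) = (g x)⁻¹) (hr : ∀ r ∈ rels, (r.map g).prod = 1) (hH : ∀ r ∈ subs, (r.map g).prod ∈ H)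
    (j u : ℕ) (hu : u < M) (h : dp_t3_8 j u = true) : Good (fa g) T MG M (cP g H) Lt.t3 u := by
  unfold dp_t3_8 at h
  rcases brec_true h with h | h
  · rcases brec_true h with h | h
    · exact lF_good (T := T) (x := Lt.t3) (by decide) [Lt.w, Lt.t0, Lt.t3, Lt.t0] (hole_rel hinv hr (by decide +kernel)) h
    · exact dp_t3_1_s hinv hr hH j u hu h
  · rcases brec_true h with h | h
    · exact dp_t3_4_s hinv hr hH j u hu h
    · exact dp_t3_7_s hinv hr hH j u hu h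
theorem dp_t3_9_s (hinv : ∀ x, g (inv x) = (g x)⁻¹) (hr : ∀ r ∈ rels, (r.map g).prod = 1) (hH : ∀ r ∈ subs, (r.map g).prod ∈ H)
    (j u : ℕ) (hu : u < M) (h : dp_t3_9 j u = true) : Good (fa g) T MG M (cP g H) Lt.t3 u := by
  unfold dp_t3_9 at h
  rcases brec_true h with h | h
  · rcases brec_true h with h | h
    · rcases brec_true h with h | h
      · exact lF_good (T := T) (x := Lt.t3) (by decide) [Lt.w, Lt.t4, Lt.t3, Lt.t4] (hole_rel hinv hr (by decide +kernel)) h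
      · exact lDef_good (T := T) (x := Lt.t3) (by decide) rfl h
    · exact dp_t3_0_s hinv hr hH j u hu h
  · exact dp_t3_8_s hinv hr hH j u hu h
theorem snd_t3 (hinv : ∀ x, g (inv x) = (g x)⁻¹) (hr : ∀ r ∈ rels, (r.map g).prod = 1) (hH : ∀ r ∈ subs, (r.map g).prod ∈ H)
    (j u : ℕ) (hu : u < M) (h : disp_t3 j u = true) : Good (fa g) T MG M (cP g H) Lt.t3 u := by
  unfold disp_t3 at h
  rcases brec_true h with h | h
  · rcases brec_true h with h | h
    · exact lF3_good (T := T) (x := Lt.t3) (by decide) .vi .t3 .v (hole_rel hinv hr (by decide +kernel)) h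
    · exact lF1_good (T := T) (x := Lt.t3) (by decide) .t3 (hole_rel hinv hr (by decide +kernel)) h
  · exact dp_t3_9_s hinv hr hH j u hu h
theorem snc_t3 (hinv : ∀ x, g (inv x) = (g x)⁻¹) (hr : ∀ r ∈ rels, (r.map g).prod = 1) (hH : ∀ r ∈ subs, (r.map g).prod ∈ H)
    (j u : ℕ) (hu : u < M) (h : chk_t3 j u = true) : (T Lt.t3 u < A ∧ Good (fa g) T MG M (cP g H) Lt.t3 u) ∨ (A ≤ T Lt.t3 u ∧ MG u < A) := by
  unfold chk_t3 at h
  cases hb : Nat.ble A (T_t3 u) with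
  | true => rw [hb] at h; exact Or.inr ⟨le_of_ble hb, le_of_ble h⟩
  | false => rw [hb] at h; exact Or.inl ⟨lt_of_ble_false hb, snd_t3 hinv hr hH j u hu h⟩
theorem dp_t4_0_s (hinv : ∀ x, g (inv x) = (g x)⁻¹) (hr : ∀ r ∈ rels, (r.map g).prod = 1) (hH : ∀ r ∈ subs, (r.map g).prod ∈ H)
    (j u : ℕ) (hu : u < M) (h : dp_t4_0 j u = true) : Good (fa g) T MG M (cP g H) Lt.t4 u := by
  unfold dp_t4_0 at h
  rcases brec_true h with h | h
  · exact lF_good (T := T) (x := Lt.t4) (by decide) [Lt.w, Lt.t6, Lt.t4, Lt.t6] (hole_rel hinv hr (by decide +kernel)) h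
  · exact lF_good (T := T) (x := Lt.t4) (by decide) [Lt.t1, Lt.t4, Lt.t1, Lt.t4, Lt.t1] (hole_rel hinv hr (by decide +kernel)) h
theorem dp_t4_1_s (hinv : ∀ x, g (inv x) = (g x)⁻¹) (hr : ∀ r ∈ rels, (r.map g).prod = 1) (hH : ∀ r ∈ subs, (r.map g).prod ∈ H)
    (j u : ℕ) (hu : u < M) (h : dp_t4_1 j u = true) : Good (fa g) T MG M (cP g H) Lt.t4 u := by
  unfold dp_t4_1 at h
  rcases brec_true h with h | h
  · exact lF_good (T := T) (x := Lt.t4) (by decide) [Lt.t5, Lt.t4, Lt.t5, Lt.t4, Lt.t5] (hole_rel hinv hr (by decide +kernel)) h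
  · exact lF_good (T := T) (x := Lt.t4) (by decide) [Lt.t5, Lt.t6, Lt.t0, Lt.t1, Lt.t2, Lt.t3, Lt.t4, Lt.t5, Lt.t6, Lt.t0, Lt.t1, Lt.t2, Lt.t3, Lt.t4, Lt.t5, Lt.t6, Lt.t0, Lt.t1, Lt.t2, Lt.t3, Lt.t4, Lt.t5, Lt.t6, Lt.vi, Lt.t0, Lt.t1, Lt.t2, Lt.t3, Lt.t4, Lt.t5, Lt.t6, Lt.t0, Lt.t1, Lt.t2, Lt.t3, Lt.t4, Lt.t5, Lt.t6, Lt.t0, Lt.t1, Lt.t2, Lt.t3, Lt.t4, Lt.t5, Lt.t6, Lt.t0, Lt.t1, Lt.t2, Lt.t3, Lt.t4, Lt.t5, Lt.t6, Lt.t0, Lt.t1, Lt.t2, Lt.t3, Lt.t4, Lt.t5, Lt.t6, Lt.t0, Lt.t1, Lt.t2, Lt.t3] (hole_rel hinv hr (by decide +kernel)) h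
theorem dp_t4_2_s (hinv : ∀ x, g (inv x) = (g x)⁻¹) (hr : ∀ r ∈ rels, (r.map g).prod = 1) (hH : ∀ r ∈ subs, (r.map g).prod ∈ H)
    (j u : ℕ) (hu : u < M) (h : dp_t4_2 j u = true) : Good (fa g) T MG M (cP g H) Lt.t4 u := by
  unfold dp_t4_2 at h
  rcases brec_true h with h | h
  · exact lH_good (T := T) (x := Lt.t4) (by decide) [] [] (by rw [show cP g H 0 = _ from cc_zero]; exact sub_rel hinv (hH _ (by decide))) h
  · exact dp_t4_1_s hinv hr hH j u hu h
theorem dp_t4_3_s (hinv : ∀ x, g (inv x) = (g x)⁻¹) (hr : ∀ r ∈ rels, (r.map g).prod = 1) (hH : ∀ r ∈ subs, (r.map g).prod ∈ H)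
    (j u : ℕ) (hu : u < M) (h : dp_t4_3 j u = true) : Good (fa g) T MG M (cP g H) Lt.t4 u := by
  unfold dp_t4_3 at h
  rcases brec_true h with h | h
  · exact lF_good (T := T) (x := Lt.t4) (by decide) [Lt.t0, Lt.w, Lt.t4, Lt.t0] (hole_rel hinv hr (by decide +kernel)) h
  · exact dp_t4_2_s hinv hr hH j u hu h
theorem snd_t4 (hinv : ∀ x, g (inv x) = (g x)⁻¹) (hr : ∀ r ∈ rels, (r.map g).prod = 1) (hH : ∀ r ∈ subs, (r.map g).prod ∈ H)
    (j u : ℕ) (hu : u < M) (h : disp_t4 j u = true) : Good (fa g) T MG M (cP g H) Lt.t4 u := by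
  unfold disp_t4 at h
  rcases brec_true h with h | h
  · rcases brec_true h with h | h
    · exact lF3_good (T := T) (x := Lt.t4) (by decide) .vi .t4 .v (hole_rel hinv hr (by decide +kernel)) h
    · exact lDef_good (T := T) (x := Lt.t4) (by decide) rfl h
  · rcases brec_true h with h | h
    · rcases brec_true h with h | h
      · exact lPar_good (T := T) (x := Lt.t4) (x' := Lt.t4) (by decide) rfl (inv_rel hinv _ _ rfl) h
      · rcases brec_true h with h | h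
        · exact lF1_good (T := T) (x := Lt.t4) (by decide) .t4 (hole_rel hinv hr (by decide +kernel)) h
        · exact lF3_good (T := T) (x := Lt.t4) (by decide) .v .t4 .vi (hole_rel hinv hr (by decide +kernel)) h
    · rcases brec_true h with h | h
      · rcases brec_true h with h | h
        · exact lF_good (T := T) (x := Lt.t4) (by decide) [Lt.t2, Lt.w, Lt.t4, Lt.t2] (hole_rel hinv hr (by decide +kernel)) h
        · exact lF_good (T := T) (x := Lt.t4) (by decide) [Lt.t3, Lt.w, Lt.t4, Lt.t3] (hole_rel hinv hr (by decide +kernel)) h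
      · rcases brec_true h with h | h
        · exact dp_t4_0_s hinv hr hH j u hu h
        · exact dp_t4_3_s hinv hr hH j u hu h
theorem snc_t4 (hinv : ∀ x, g (inv x) = (g x)⁻¹) (hr : ∀ r ∈ rels, (r.map g).prod = 1) (hH : ∀ r ∈ subs, (r.map g).prod ∈ H)
    (j u : ℕ) (hu : u < M) (h : chk_t4 j u = true) : (T Lt.t4 u < A ∧ Good (fa g) T MG M (cP g H) Lt.t4 u) ∨ (A ≤ T Lt.t4 u ∧ MG u < A) := by
  unfold chk_t4 at h
  cases hb : Nat.ble A (T_t4 u) with
  | true => rw [hb] at h; exact Or.inr ⟨le_of_ble hb, le_of_ble h⟩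
  | false => rw [hb] at h; exact Or.inl ⟨lt_of_ble_false hb, snd_t4 hinv hr hH j u hu h⟩
theorem dp_t5_0_s (hinv : ∀ x, g (inv x) = (g x)⁻¹) (hr : ∀ r ∈ rels, (r.map g).prod = 1) (hH : ∀ r ∈ subs, (r.map g).prod ∈ H)
    (j u : ℕ) (hu : u < M) (h : dp_t5_0 j u = true) : Good (fa g) T MG M (cP g H) Lt.t5 u := by
  unfold dp_t5_0 at h
  rcases brec_true h with h | h
  · exact lF_good (T := T) (x := Lt.t5) (by decide) [Lt.t1, Lt.w, Lt.t5, Lt.t1] (hole_rel hinv hr (by decide +kernel)) h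
  · exact lF_good (T := T) (x := Lt.t5) (by decide) [Lt.t2, Lt.w, Lt.t5, Lt.t2] (hole_rel hinv hr (by decide +kernel)) h
theorem dp_t5_1_s (hinv : ∀ x, g (inv x) = (g x)⁻¹) (hr : ∀ r ∈ rels, (r.map g).prod = 1) (hH : ∀ r ∈ subs, (r.map g).prod ∈ H)
    (j u : ℕ) (hu : u < M) (h : dp_t5_1 j u = true) : Good (fa g) T MG M (cP g H) Lt.t5 u := by
  unfold dp_t5_1 at h
  rcases brec_true h with h | h
  · exact lH_good (T := T) (x := Lt.t5) (by decide) [] [] (by rw [show cP g H 0 = _ from cc_zero]; exact sub_rel hinv (hH _ (by decide))) h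
  · exact lF_good (T := T) (x := Lt.t5) (by decide) [Lt.t6, Lt.t5, Lt.t6, Lt.t5, Lt.t6] (hole_rel hinv hr (by decide +kernel)) h
theorem dp_t5_2_s (hinv : ∀ x, g (inv x) = (g x)⁻¹) (hr : ∀ r ∈ rels, (r.map g).prod = 1) (hH : ∀ r ∈ subs, (r.map g).prod ∈ H)
    (j u : ℕ) (hu : u < M) (h : dp_t5_2 j u = true) : Good (fa g) T MG M (cP g H) Lt.t5 u := by
  unfold dp_t5_2 at h
  rcases brec_true h with h | h
  · exact lF_good (T := T) (x := Lt.t5) (by decide) [Lt.t3, Lt.w, Lt.t5, Lt.t3] (hole_rel hinv hr (by decide +kernel)) h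
  · exact dp_t5_1_s hinv hr hH j u hu h
theorem dp_t5_3_s (hinv : ∀ x, g (inv x) = (g x)⁻¹) (hr : ∀ r ∈ rels, (r.map g).prod = 1) (hH : ∀ r ∈ subs, (r.map g).prod ∈ H)
    (j u : ℕ) (hu : u < M) (h : dp_t5_3 j u = true) : Good (fa g) T MG M (cP g H) Lt.t5 u := by
  unfold dp_t5_3 at h
  rcases brec_true h with h | h
  · exact lF_good (T := T) (x := Lt.t5) (by decide) [Lt.t4, Lt.t5, Lt.t4, Lt.t5, Lt.t4] (hole_rel hinv hr (by decide +kernel)) h
  · exact dp_t5_2_s hinv hr hH j u hu h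
theorem dp_t5_4_s (hinv : ∀ x, g (inv x) = (g x)⁻¹) (hr : ∀ r ∈ rels, (r.map g).prod = 1) (hH : ∀ r ∈ subs, (r.map g).prod ∈ H)
    (j u : ℕ) (hu : u < M) (h : dp_t5_4 j u = true) : Good (fa g) T MG M (cP g H) Lt.t5 u := by
  unfold dp_t5_4 at h
  rcases brec_true h with h | h
  · rcases brec_true h with h | h
    · exact lF1_good (T := T) (x := Lt.t5) (by decide) .t5 (hole_rel hinv hr (by decide +kernel)) h
    · rcases brec_true h with h | h
      · exact lF3_good (T := T) (x := Lt.t5) (by decide) .v .t5 .vi (hole_rel hinv hr (by decide +kernel)) h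
      · exact lF_good (T := T) (x := Lt.t5) (by decide) [Lt.t0, Lt.w, Lt.t5, Lt.t0] (hole_rel hinv hr (by decide +kernel)) h
  · rcases brec_true h with h | h
    · exact dp_t5_0_s hinv hr hH j u hu h
    · exact dp_t5_3_s hinv hr hH j u hu h
theorem snd_t5 (hinv : ∀ x, g (inv x) = (g x)⁻¹) (hr : ∀ r ∈ rels, (r.map g).prod = 1) (hH : ∀ r ∈ subs, (r.map g).prod ∈ H)
    (j u : ℕ) (hu : u < M) (h : disp_t5 j u = true) : Good (fa g) T MG M (cP g H) Lt.t5 u := by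
  unfold disp_t5 at h
  rcases brec_true h with h | h
  · rcases brec_true h with h | h
    · exact lF3_good (T := T) (x := Lt.t5) (by decide) .vi .t5 .v (hole_rel hinv hr (by decide +kernel)) h
    · rcases brec_true h with h | h
      · exact lDef_good (T := T) (x := Lt.t5) (by decide) rfl h
      · exact lPar_good (T := T) (x := Lt.t5) (x' := Lt.t5) (by decide) rfl (inv_rel hinv _ _ rfl) h
  · exact dp_t5_4_s hinv hr hH j u hu h
theorem snc_t5 (hinv : ∀ x, g (inv x) = (g x)⁻¹) (hr : ∀ r ∈ rels, (r.map g).prod = 1) (hH : ∀ r ∈ subs, (r.map g).prod ∈ H)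
    (j u : ℕ) (hu : u < M) (h : chk_t5 j u = true) : (T Lt.t5 u < A ∧ Good (fa g) T MG M (cP g H) Lt.t5 u) ∨ (A ≤ T Lt.t5 u ∧ MG u < A) := by
  unfold chk_t5 at h
  cases hb : Nat.ble A (T_t5 u) with
  | true => rw [hb] at h; exact Or.inr ⟨le_of_ble hb, le_of_ble h⟩
  | false => rw [hb] at h; exact Or.inl ⟨lt_of_ble_false hb, snd_t5 hinv hr hH j u hu h⟩
theorem dp_t6_0_s (hinv : ∀ x, g (inv x) = (g x)⁻¹) (hr : ∀ r ∈ rels, (r.map g).prod = 1) (hH : ∀ r ∈ subs, (r.map g).prod ∈ H)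
    (j u : ℕ) (hu : u < M) (h : dp_t6_0 j u = true) : Good (fa g) T MG M (cP g H) Lt.t6 u := by
  unfold dp_t6_0 at h
  rcases brec_true h with h | h
  · exact lF_good (T := T) (x := Lt.t6) (by decide) [Lt.t3, Lt.w, Lt.t6, Lt.t3] (hole_rel hinv hr (by decide +kernel)) h
  · exact lS_good (T := T) (x := Lt.t6) (by decide) hu [Lt.t6] (hole_rel hinv hr (by decide +kernel)) h
theorem dp_t6_1_s (hinv : ∀ x, g (inv x) = (g x)⁻¹) (hr : ∀ r ∈ rels, (r.map g).prod = 1) (hH : ∀ r ∈ subs, (r.map g).prod ∈ H)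
    (j u : ℕ) (hu : u < M) (h : dp_t6_1 j u = true) : Good (fa g) T MG M (cP g H) Lt.t6 u := by
  unfold dp_t6_1 at h
  rcases brec_true h with h | h
  · exact lF_good (T := T) (x := Lt.t6) (by decide) [Lt.t5, Lt.t6, Lt.t5, Lt.t6, Lt.t5] (hole_rel hinv hr (by decide +kernel)) h
  · exact dp_t6_0_s hinv hr hH j u hu h
theorem dp_t6_2_s (hinv : ∀ x, g (inv x) = (g x)⁻¹) (hr : ∀ r ∈ rels, (r.map g).prod = 1) (hH : ∀ r ∈ subs, (r.map g).prod ∈ H)
    (j u : ℕ) (hu : u < M) (h : dp_t6_2 j u = true) : Good (fa g) T MG M (cP g H) Lt.t6 u := by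
  unfold dp_t6_2 at h
  rcases brec_true h with h | h
  · exact lF_good (T := T) (x := Lt.t6) (by decide) [Lt.t2, Lt.w, Lt.t6, Lt.t2] (hole_rel hinv hr (by decide +kernel)) h
  · exact dp_t6_1_s hinv hr hH j u hu h
theorem snd_t6 (hinv : ∀ x, g (inv x) = (g x)⁻¹) (hr : ∀ r ∈ rels, (r.map g).prod = 1) (hH : ∀ r ∈ subs, (r.map g).prod ∈ H)
    (j u : ℕ) (hu : u < M) (h : disp_t6 j u = true) : Good (fa g) T MG M (cP g H) Lt.t6 u := by
  unfold disp_t6 at h
  rcases brec_true h with h | h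
  · rcases brec_true h with h | h
    · exact lF3_good (T := T) (x := Lt.t6) (by decide) .vi .t6 .v (hole_rel hinv hr (by decide +kernel)) h
    · exact lF1_good (T := T) (x := Lt.t6) (by decide) .t6 (hole_rel hinv hr (by decide +kernel)) h
  · rcases brec_true h with h | h
    · rcases brec_true h with h | h
      · exact lDef_good (T := T) (x := Lt.t6) (by decide) rfl h
      · rcases brec_true h with h | h
        · exact lPar_good (T := T) (x := Lt.t6) (x' := Lt.t6) (by decide) rfl (inv_rel hinv _ _ rfl) h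
        · exact lF3_good (T := T) (x := Lt.t6) (by decide) .v .t6 .vi (hole_rel hinv hr (by decide +kernel)) h
    · rcases brec_true h with h | h
      · rcases brec_true h with h | h
        · exact lF_good (T := T) (x := Lt.t6) (by decide) [Lt.t4, Lt.w, Lt.t6, Lt.t4] (hole_rel hinv hr (by decide +kernel)) h
        · exact lF_good (T := T) (x := Lt.t6) (by decide) [Lt.t1, Lt.w, Lt.t6, Lt.t1] (hole_rel hinv hr (by decide +kernel)) h
      · rcases brec_true h with h | h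
        · exact lF_good (T := T) (x := Lt.t6) (by decide) [Lt.t0, Lt.w, Lt.t6, Lt.t0] (hole_rel hinv hr (by decide +kernel)) h
        · exact dp_t6_2_s hinv hr hH j u hu h
theorem snc_t6 (hinv : ∀ x, g (inv x) = (g x)⁻¹) (hr : ∀ r ∈ rels, (r.map g).prod = 1) (hH : ∀ r ∈ subs, (r.map g).prod ∈ H)
    (j u : ℕ) (hu : u < M) (h : chk_t6 j u = true) : (T Lt.t6 u < A ∧ Good (fa g) T MG M (cP g H) Lt.t6 u) ∨ (A ≤ T Lt.t6 u ∧ MG u < A) := by
  unfold chk_t6 at h
  cases hb : Nat.ble A (T_t6 u) with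
  | true => rw [hb] at h; exact Or.inr ⟨le_of_ble hb, le_of_ble h⟩
  | false => rw [hb] at h; exact Or.inl ⟨lt_of_ble_false hb, snd_t6 hinv hr hH j u hu h⟩
theorem dp_w_0_s (hinv : ∀ x, g (inv x) = (g x)⁻¹) (hr : ∀ r ∈ rels, (r.map g).prod = 1) (hH : ∀ r ∈ subs, (r.map g).prod ∈ H)
    (j u : ℕ) (hu : u < M) (h : dp_w_0 j u = true) : Good (fa g) T MG M (cP g H) Lt.w u := by
  unfold dp_w_0 at h
  rcases brec_true h with h | h
  · exact lF3_good (T := T) (x := Lt.w) (by decide) .t1 .w .t1 (hole_rel hinv hr (by decide +kernel)) h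
  · exact lF3_good (T := T) (x := Lt.w) (by decide) .t2 .w .t2 (hole_rel hinv hr (by decide +kernel)) h
theorem dp_w_1_s (hinv : ∀ x, g (inv x) = (g x)⁻¹) (hr : ∀ r ∈ rels, (r.map g).prod = 1) (hH : ∀ r ∈ subs, (r.map g).prod ∈ H)
    (j u : ℕ) (hu : u < M) (h : dp_w_1 j u = true) : Good (fa g) T MG M (cP g H) Lt.w u := by
  unfold dp_w_1 at h
  rcases brec_true h with h | h
  · exact lF_good (T := T) (x := Lt.w) (by decide) [Lt.t0, Lt.t2, Lt.t0, Lt.t2] (hole_rel hinv hr (by decide +kernel)) h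
  · exact lF_good (T := T) (x := Lt.w) (by decide) [Lt.t0, Lt.t6, Lt.t0, Lt.t6] (hole_rel hinv hr (by decide +kernel)) h
theorem dp_w_2_s (hinv : ∀ x, g (inv x) = (g x)⁻¹) (hr : ∀ r ∈ rels, (r.map g).prod = 1) (hH : ∀ r ∈ subs, (r.map g).prod ∈ H)
    (j u : ℕ) (hu : u < M) (h : dp_w_2 j u = true) : Good (fa g) T MG M (cP g H) Lt.w u := by
  unfold dp_w_2 at h
  rcases brec_true h with h | h
  · exact lF3_good (T := T) (x := Lt.w) (by decide) .t0 .w .t0 (hole_rel hinv hr (by decide +kernel)) h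
  · exact dp_w_1_s hinv hr hH j u hu h
theorem snd_w (hinv : ∀ x, g (inv x) = (g x)⁻¹) (hr : ∀ r ∈ rels, (r.map g).prod = 1) (hH : ∀ r ∈ subs, (r.map g).prod ∈ H)
    (j u : ℕ) (hu : u < M) (h : disp_w j u = true) : Good (fa g) T MG M (cP g H) Lt.w u := by
  unfold disp_w at h
  rcases brec_true h with h | h
  · exact lF3_good (T := T) (x := Lt.w) (by decide) .vi .w .v (hole_rel hinv hr (by decide +kernel)) h
  · rcases brec_true h with h | h
    · rcases brec_true h with h | h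
      · exact lF3_good (T := T) (x := Lt.w) (by decide) .t5 .w .t5 (hole_rel hinv hr (by decide +kernel)) h
      · rcases brec_true h with h | h
        · exact lF3_good (T := T) (x := Lt.w) (by decide) .t4 .w .t4 (hole_rel hinv hr (by decide +kernel)) h
        · exact lF3_good (T := T) (x := Lt.w) (by decide) .t6 .w .t6 (hole_rel hinv hr (by decide +kernel)) h
    · rcases brec_true h with h | h
      · exact dp_w_0_s hinv hr hH j u hu h
      · rcases brec_true h with h | h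
        · exact lF3_good (T := T) (x := Lt.w) (by decide) .t3 .w .t3 (hole_rel hinv hr (by decide +kernel)) h
        · exact dp_w_2_s hinv hr hH j u hu h
theorem snc_w (hinv : ∀ x, g (inv x) = (g x)⁻¹) (hr : ∀ r ∈ rels, (r.map g).prod = 1) (hH : ∀ r ∈ subs, (r.map g).prod ∈ H)
    (j u : ℕ) (hu : u < M) (h : chk_w j u = true) : (T Lt.w u < A ∧ Good (fa g) T MG M (cP g H) Lt.w u) ∨ (A ≤ T Lt.w u ∧ MG u < A) := by
  unfold chk_w at h
  cases hb : Nat.ble A (T_w u) with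
  | true => rw [hb] at h; exact Or.inr ⟨le_of_ble hb, le_of_ble h⟩
  | false => rw [hb] at h; exact Or.inl ⟨lt_of_ble_false hb, snd_w hinv hr hH j u hu h⟩
theorem dp_v_0_s (hinv : ∀ x, g (inv x) = (g x)⁻¹) (hr : ∀ r ∈ rels, (r.map g).prod = 1) (hH : ∀ r ∈ subs, (r.map g).prod ∈ H)
    (j u : ℕ) (hu : u < M) (h : dp_v_0 j u = true) : Good (fa g) T MG M (cP g H) Lt.v u := by
  unfold dp_v_0 at h
  rcases brec_true h with h | h
  · exact lF3_good (T := T) (x := Lt.v) (by decide) .t0 .vi .t0 (hole_rel hinv hr (by decide +kernel)) h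
  · exact lF3_good (T := T) (x := Lt.v) (by decide) .t4 .vi .t4 (hole_rel hinv hr (by decide +kernel)) h
theorem dp_v_1_s (hinv : ∀ x, g (inv x) = (g x)⁻¹) (hr : ∀ r ∈ rels, (r.map g).prod = 1) (hH : ∀ r ∈ subs, (r.map g).prod ∈ H)
    (j u : ℕ) (hu : u < M) (h : dp_v_1 j u = true) : Good (fa g) T MG M (cP g H) Lt.v u := by
  unfold dp_v_1 at h
  rcases brec_true h with h | h
  · exact lF1_good (T := T) (x := Lt.v) (by decide) .vi (hole_rel hinv hr (by decide +kernel)) h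
  · exact dp_v_0_s hinv hr hH j u hu h
theorem dp_v_2_s (hinv : ∀ x, g (inv x) = (g x)⁻¹) (hr : ∀ r ∈ rels, (r.map g).prod = 1) (hH : ∀ r ∈ subs, (r.map g).prod ∈ H)
    (j u : ℕ) (hu : u < M) (h : dp_v_2 j u = true) : Good (fa g) T MG M (cP g H) Lt.v u := by
  unfold dp_v_2 at h
  rcases brec_true h with h | h
  · exact lS_good (T := T) (x := Lt.v) (by decide) hu [Lt.vi] (hole_rel hinv hr (by decide +kernel)) h
  · exact dp_v_1_s hinv hr hH j u hu h
theorem snd_v (hinv : ∀ x, g (inv x) = (g x)⁻¹) (hr : ∀ r ∈ rels, (r.map g).prod = 1) (hH : ∀ r ∈ subs, (r.map g).prod ∈ H)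
    (j u : ℕ) (hu : u < M) (h : disp_v j u = true) : Good (fa g) T MG M (cP g H) Lt.v u := by
  unfold disp_v at h
  rcases brec_true h with h | h
  · exact lDef_good (T := T) (x := Lt.v) (by decide) rfl h
  · rcases brec_true h with h | h
    · exact lPar_good (T := T) (x := Lt.v) (x' := Lt.vi) (by decide) rfl (inv_rel hinv _ _ rfl) h
    · exact dp_v_2_s hinv hr hH j u hu h
theorem snc_v (hinv : ∀ x, g (inv x) = (g x)⁻¹) (hr : ∀ r ∈ rels, (r.map g).prod = 1) (hH : ∀ r ∈ subs, (r.map g).prod ∈ H)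
    (j u : ℕ) (hu : u < M) (h : chk_v j u = true) : (T Lt.v u < A ∧ Good (fa g) T MG M (cP g H) Lt.v u) ∨ (A ≤ T Lt.v u ∧ MG u < A) := by
  unfold chk_v at h
  cases hb : Nat.ble A (T_v u) with
  | true => rw [hb] at h; exact Or.inr ⟨le_of_ble hb, le_of_ble h⟩
  | false => rw [hb] at h; exact Or.inl ⟨lt_of_ble_false hb, snd_v hinv hr hH j u hu h⟩
theorem dp_vi_0_s (hinv : ∀ x, g (inv x) = (g x)⁻¹) (hr : ∀ r ∈ rels, (r.map g).prod = 1) (hH : ∀ r ∈ subs, (r.map g).prod ∈ H)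
    (j u : ℕ) (hu : u < M) (h : dp_vi_0 j u = true) : Good (fa g) T MG M (cP g H) Lt.vi u := by
  unfold dp_vi_0 at h
  rcases brec_true h with h | h
  · exact lF1_good (T := T) (x := Lt.vi) (by decide) .v (hole_rel hinv hr (by decide +kernel)) h
  · exact lF3_good (T := T) (x := Lt.vi) (by decide) .t0 .v .t0 (hole_rel hinv hr (by decide +kernel)) h
theorem dp_vi_1_s (hinv : ∀ x, g (inv x) = (g x)⁻¹) (hr : ∀ r ∈ rels, (r.map g).prod = 1) (hH : ∀ r ∈ subs, (r.map g).prod ∈ H)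
    (j u : ℕ) (hu : u < M) (h : dp_vi_1 j u = true) : Good (fa g) T MG M (cP g H) Lt.vi u := by
  unfold dp_vi_1 at h
  rcases brec_true h with h | h
  · exact lF3_good (T := T) (x := Lt.vi) (by decide) .t6 .v .t6 (hole_rel hinv hr (by decide +kernel)) h
  · exact dp_vi_0_s hinv hr hH j u hu h
theorem snd_vi (hinv : ∀ x, g (inv x) = (g x)⁻¹) (hr : ∀ r ∈ rels, (r.map g).prod = 1) (hH : ∀ r ∈ subs, (r.map g).prod ∈ H)
    (j u : ℕ) (hu : u < M) (h : disp_vi j u = true) : Good (fa g) T MG M (cP g H) Lt.vi u := by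
  unfold disp_vi at h
  rcases brec_true h with h | h
  · exact lPar_good (T := T) (x := Lt.vi) (x' := Lt.v) (by decide) rfl (inv_rel hinv _ _ rfl) h
  · rcases brec_true h with h | h
    · exact lDef_good (T := T) (x := Lt.vi) (by decide) rfl h
    · exact dp_vi_1_s hinv hr hH j u hu h
theorem snc_vi (hinv : ∀ x, g (inv x) = (g x)⁻¹) (hr : ∀ r ∈ rels, (r.map g).prod = 1) (hH : ∀ r ∈ subs, (r.map g).prod ∈ H)
    (j u : ℕ) (hu : u < M) (h : chk_vi j u = true) : (T Lt.vi u < A ∧ Good (fa g) T MG M (cP g H) Lt.vi u) ∨ (A ≤ T Lt.vi u ∧ MG u < A) := by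
  unfold chk_vi at h
  cases hb : Nat.ble A (T_vi u) with
  | true => rw [hb] at h; exact Or.inr ⟨le_of_ble hb, le_of_ble h⟩
  | false => rw [hb] at h; exact Or.inl ⟨lt_of_ble_false hb, snd_vi hinv hr hH j u hu h⟩
theorem dM_0_s (hinv : ∀ x, g (inv x) = (g x)⁻¹) (hr : ∀ r ∈ rels, (r.map g).prod = 1) (j z1 z2 u : ℕ) (h : dM_0 j z1 z2 u = true) : GoodM (fa g) T MG M (cP g H) u := by
  unfold dM_0 at h
  rcases brec_true h with h | h
  · exact mCo_good (T := T) (y := .v) (by decide) h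
  · rcases brec_true h with h | h
    · rcases brec_true h with h | h
      · exact mCo_good (T := T) (y := .t5) (by decide) h
      · rcases brec_true h with h | h
        · exact mCo_good (T := T) (y := .t6) (by decide) h
        · exact mCo_good (T := T) (y := .t4) (by decide) h
    · rcases brec_true h with h | h
      · rcases brec_true h with h | h
        · exact mCo_good (T := T) (y := .t1) (by decide) h
        · exact mCo_good (T := T) (y := .t2) (by decide) h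
      · rcases brec_true h with h | h
        · exact mCo_good (T := T) (y := .t0) (by decide) h
        · rcases brec_true h with h | h
          · exact mCo_good (T := T) (y := .t3) (by decide) h
          · exact mRel_good (T := T) (by decide) [Lt.vi, Lt.t4] [Lt.t4, Lt.vi] (pair_rel hinv hr (by decide +kernel)) h
theorem sndM (hinv : ∀ x, g (inv x) = (g x)⁻¹) (hr : ∀ r ∈ rels, (r.map g).prod = 1) (u : ℕ) (h : chkM u = true) :
    MG u < A → MG u % M < u ∧ GoodM (fa g) T MG M (cP g H) u := by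
  intro hA
  unfold chkM at h
  cases hb : Nat.ble A (MG u) with
  | true => exact absurd (le_of_ble hb) (by omega)
  | false =>
    rw [hb] at h
    obtain ⟨h1, h2⟩ := band_eq_true.1 h
    exact ⟨le_of_ble h1, dM_0_s hinv hr _ _ _ _ h2⟩
theorem sndN (hinv : ∀ x, g (inv x) = (g x)⁻¹) (hr : ∀ r ∈ rels, (r.map g).prod = 1) (hH : ∀ r ∈ subs, (r.map g).prod ∈ H)
    (u : ℕ) (hu : u < M) (h : chkP u = true) : (∀ x, (T x u < A ∧ Good (fa g) T MG M (cP g H) x u) ∨ (A ≤ T x u ∧ MG u < A)) ∧ (MG u < A → MG u % M < u ∧ GoodM (fa g) T MG M (cP g H) u) := by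
  unfold chkP at h
  cases hb : Nat.ble M u with
  | true => exact absurd (le_of_ble hb) (by omega)
  | false =>
    rw [hb] at h
    change chkN u = true at h
    unfold chkN at h
    obtain ⟨h0, h⟩ := band_eq_true.1 h
    obtain ⟨h1, h⟩ := band_eq_true.1 h
    obtain ⟨h2, h⟩ := band_eq_true.1 h
    obtain ⟨h3, h⟩ := band_eq_true.1 h
    obtain ⟨h4, h⟩ := band_eq_true.1 h
    obtain ⟨h5, h⟩ := band_eq_true.1 h
    obtain ⟨h6, h⟩ := band_eq_true.1 h
    obtain ⟨h7, h⟩ := band_eq_true.1 h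
    obtain ⟨h8, h⟩ := band_eq_true.1 h
    obtain ⟨h9, h⟩ := band_eq_true.1 h
    refine ⟨?_, sndM hinv hr u h⟩
    intro x
    cases x
    · exact snc_t0 hinv hr hH _ u hu h0
    · exact snc_t1 hinv hr hH _ u hu h1
    · exact snc_t2 hinv hr hH _ u hu h2
    · exact snc_t3 hinv hr hH _ u hu h3
    · exact snc_t4 hinv hr hH _ u hu h4
    · exact snc_t5 hinv hr hH _ u hu h5
    · exact snc_t6 hinv hr hH _ u hu h6
    · exact snc_w hinv hr hH _ u hu h7
    · exact snc_v hinv hr hH _ u hu h8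
    · exact snc_vi hinv hr hH _ u hu h9
theorem final (hinv : ∀ x, g (inv x) = (g x)⁻¹) (hr : ∀ r ∈ rels, (r.map g).prod = 1) (hH : ∀ r ∈ subs, (r.map g).prod ∈ H)
    (hall : ∀ u, u < M → chkP u = true) (hc : cntB liveP 7 0 = 56) :
    H.relIndex (Subgroup.closure (Set.range g)) ≤ 56 ∧ H.relIndex (Subgroup.closure (Set.range g)) ≠ 0 := by
  have hn := fun u hu => sndN hinv hr hH u hu (hall u hu)
  have h1 : ∀ x u, u < M → T x u < A → Good (fa g) T MG M (cP g H) x u := by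
    intro x u hu hx
    rcases (hn u hu).1 x with h | h
    · exact h.2
    · exact absurd h.1 (by omega)
  have h2 : ∀ u, u < M → MG u < A → GoodM (fa g) T MG M (cP g H) u := fun u hu h => ((hn u hu).2 h).2
  refine relIndex_le (M := M) (A := A) (T := T) (MG := MG) (c := cP g H) (by decide) cc_zero (sound_of_good h1 h2) ?_ ?_ ?_
  · intro u hu h
    exact ((hn u hu).2 h).1
  · intro x u hu h
    rcases (hn u hu).1 x with h' | h'
    · exact h'.1
    · exact absurd h'.2 (by omega)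
  · rw [← hc, ← cntB_spec]
    apply Finset.card_le_card
    intro u
    simp only [Finset.mem_filter, Finset.mem_Ico]
    rintro ⟨⟨_, h3⟩, h4⟩
    refine ⟨⟨Nat.zero_le _, lt_of_lt_of_le h3 (by decide)⟩, ?_⟩
    unfold liveP
    cases hb : Nat.ble M u with
    | true => exact absurd (le_of_ble hb) (by omega)
    | false => exact h4
end
end H34.TCS6A
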